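import Mathlib
import Cfsg.Agent.Lib.MOrb.Salt

/-!
# Sets that lie in an octad together with a given set
-/

set_option autoImplicit false

namespace CfsgLib.MOrb

open Cfsg CfsgLib.Golay
open scoped Pointwise

/-- `l` is the list of the octads that contain the mask `A` -/
noncomputable def octList (A : ℕ) (l : List ℕ) : Bool :=
  and (allL l fun o => and (and (isCode o) (Nat.beq (pc o) 8)) (Nat.beq (Nat.land A o) A))
    (allLT 4096 fun k => Bool.rec true (anyL l fun o => Nat.beq o (cw k))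
      (and (Nat.beq (Nat.land A (cw k)) A) (Nat.beq (pc (cw k)) 8)))

/-- the mask `m` is contained in a member of `l` -/
noncomputable def inO (l : List ℕ) (m : ℕ) : Bool := anyL l fun o => Nat.beq (Nat.land m o) m

theorem inO_iff {A : ℕ} {l : List ℕ} (hA : A < 2 ^ 24) (h : octList A l = true) {m : ℕ}
    (hm : m < 2 ^ 24) : (∃ o ∈ octads, ofMask A ∪ ofMask m ⊆ o) ↔ inO l m = true := by
  simp only [octList, Bool.and_eq_true, allL_iff, Nat.beq_eq] at h
  rw [inO, anyL_iff]
  constructor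
  · rintro ⟨o, ho, hs⟩
    obtain ⟨c, h1, h2, rfl⟩ := exists_octad_mask ho
    rw [Finset.union_subset_iff, ofMask_subset_iff hA, ofMask_subset_iff hm] at hs
    have h3 := of_allLT h.2 (Nat.mod_lt c (by norm_num))
    rw [isCode_iff.1 h1, show Nat.land A c = A from hs.1, h2] at h3
    simp only [Nat.beq_refl, Bool.and_self, anyL_iff, Nat.beq_eq] at h3
    obtain ⟨_, h4, rfl⟩ := h3
    exact ⟨_, h4, by rw [Nat.beq_eq]; exact hs.2⟩
  · rintro ⟨o, ho, e⟩
    obtain ⟨⟨h1, h2⟩, h3⟩ := h.1 o ho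
    exact ⟨ofMask o, (ofMask_mem_octads (lt_of_isCode h1)).2 ⟨h1, h2⟩,
      Finset.union_subset (ofMask_subset h3) (ofMask_subset (Nat.eq_of_beq_eq_true e))⟩

theorem exists_octad_smul (g : M24) (s : Finset GolayPt) :
    (∃ o ∈ octads, g • s ⊆ o) ↔ ∃ o ∈ octads, s ⊆ o := by
  constructor
  · rintro ⟨o, ho, h⟩
    obtain ⟨o, rfl⟩ := MulAction.surjective g o
    exact ⟨o, (smul_mem_octads_iff g).1 ho, Finset.smul_finset_subset_smul_finset_iff.1 h⟩
  · rintro ⟨o, ho, h⟩
    exact ⟨g • o, (smul_mem_octads_iff g).2 ho, Finset.smul_finset_subset_smul_finset h⟩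

theorem disjoint_smul (g : M24) (s t : Finset GolayPt) : Disjoint (g • s) (g • t) ↔ Disjoint s t := by
  rw [Finset.disjoint_iff_inter_eq_empty, ← Finset.card_eq_zero, card_smul_inter, Finset.card_eq_zero,
    ← Finset.disjoint_iff_inter_eq_empty]

end CfsgLib.MOrb
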